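import Mathlib

/-! The standard graph for the certificate of the graph with parameters (77, 16, 0, 4). -/

set_option autoImplicit false

namespace Cfsg.Agent.Lib.SRGSearch.G77

/-- The standard graph. -/
def std : List ℕ := [332667535529699446868, 59029869267780290221080, 611068945394103225249, 442807434958713791394, 5313833302317794207747, 56742186567951062139980, 3551430579892097878177, 89730727800765992141900, 1227573246900362563596, 7084882933418991570956, 627819947623893278882, 56816043817858869760084, 85080997095593297947395, 1210714228311873033240, 57258711620320393396992, 147589999691518989376, 5039492033464661201984, 85002637087745179664472, 136621251351684333656, 1255103696352269500422, 198311541729034174470, 11807357389845702926369, 80432487905433106276385, 75862245418873188519424, 40232493652432693264784, 10625620205568781454848, 19187028927281032102288, 4782337189582421395464, 10038525856945608327490, 18889485377455507177481, 114001454837755540415040, 369517185173287889024, 81461074594136232067078, 2398410594982883256448, 85461723352961925251, 2675939874389880868096, 9596925500652909560112, 55368129101086851650, 9750258514670051950598, 77052698536247410328112, 1346687301875870482563, 9498055595260006400560, 4803219609041951132928, 77329365936152487462920, 38526027461570539032704, 4722533548207214170144, 77919236418977363198256, 20072723736297849619969, 37785633324910969528324, 898702314091057385504, 9057351340486207606816,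 26378844052961471143940, 116317097717933504233481, 34903545701016827625481, 89070103795229052126228, 38032574673148725822977, 12516116277878029617160, 29404110163465680200256, 81405482021700365189442, 35565323427886016496897, 20328317317561991627408, 115845562500397266182148, 23316720826106797887616, 23611963601770649755968, 28334528787711793635332, 113338168063203113960705, 1578516087858532384, 4522758686209247240, 37783996724549309759497, 5131315215056520212, 37784724769165044883776, 7592013483552539202, 37789032350608298934928, 37798198264705977553024, 75592030425225462040610, 15682079137127232194594, 18928976090729476657280]

end Cfsg.Agent.Lib.SRGSearch.G77
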