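import Cfsg.Agent.Lib.SRGSearch.Enc
import Cfsg.Agent.Lib.SRGSearch.G77.Std
import Cfsg.Agent.Lib.SRGSearch.G77.C0
import Cfsg.Agent.Lib.SRGSearch.G77.C1
import Cfsg.Agent.Lib.SRGSearch.G77.C2
import Cfsg.Agent.Lib.SRGSearch.G77.C3
import Cfsg.Agent.Lib.SRGSearch.G77.C4
import Cfsg.Agent.Lib.SRGSearch.G77.C5
import Cfsg.Agent.Lib.SRGSearch.G77.C6
import Cfsg.Agent.Lib.SRGSearch.G77.C7
import Cfsg.Agent.Lib.SRGSearch.G77.C8
import Cfsg.Agent.Lib.SRGSearch.G77.C9
import Cfsg.Agent.Lib.SRGSearch.G77.C10
import Cfsg.Agent.Lib.SRGSearch.G77.C11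

/-! Uniqueness of the strongly regular graph with parameters (77, 16, 0, 4). -/

set_option autoImplicit false

namespace Cfsg.Agent.Lib.SRGSearch.G77

open Cfsg.Agent.Lib.SRGSearch.Core Cfsg.Agent.Lib.SRGSearch.Enc

/-- The packed certificate. -/
def raw : List ℕ := D0.s ++ (D1.s ++ (D2.s ++ (D3.s ++ (D4.s ++ (D5.s ++ (D6.s ++ (D7.s ++ (D8.s ++ (D9.s ++ (D10.s ++ (D11.s)))))))))))

theorem check : checkRaw 77 16 0 4 std 151115727451828646838272 raw [] = true :=
  checkRaw_append' P0.check (checkRaw_append' P1.check (checkRaw_append' P2.check (checkRaw_append' P3.check (checkRaw_append' P4.check (checkRaw_append' P5.check (checkRaw_append' P6.check (checkRaw_append' P7.check (checkRaw_append' P8.check (checkRaw_append' P9.check (checkRaw_append' P10.check (P11.check)))))))))))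

/-- The root of the certificate. -/
def root : ℕ := 0x2625a524a423a322a221a120a01f9f1e9e1d9d1c9c1b9b1a9a19991898179716961595149413931292119110900f8f0e8e0d8d0c8c0b8b0a8a098908078706860585048403830282018100888040000000000000000003fffc98020002040000

theorem root_mem : root ∈ raw := by
  unfold raw
  simp only [List.mem_append]
  right; right; right; right; right; right; right; right; right; right; right;
  decide +kernel

theorem root_known : (dec 77 151115727451828646838272 root).known = [] := by
  decide +kernel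

/-- Uniqueness. -/
theorem exists_perm {N : Fin 77 → Finset (Fin 77)} (hN : IsSRG 77 16 0 4 N) :
    ∃ σ : Equiv.Perm (Fin 77), act σ N = stdN 77 std :=
  exists_perm_of_checkRaw check ⟨root, root_mem, root_known⟩ hN

end Cfsg.Agent.Lib.SRGSearch.G77
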